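import Cfsg.Agent.H3.TG5
import Cfsg.Agent.H3.TG3
import Cfsg.Agent.H27.OBasic
import Cfsg.Agent.H38.TwOm

/-! The orthogonal groups of minus type are generated by two elements. -/

set_option autoImplicit false

namespace Cfsg.Agent.H3

open H11 H27 Module

theorem EC.Frm.twoG_M {F V P : Type*} [Field F] [AddCommGroup V] [Module F V] [Field P] [Finite P] {I : Type} [Fintype I]
    [DecidableEq I] {C : EC (.id F) V} (Ψ : C.Frm I P) {k : ℕ} {e : ℕ → I} (hk : 2 ≤ k)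
    (hi : ∀ i < k, ∀ j < k, i ≠ j → Ind Ψ.bar (e i) (e j)) (hall : ∀ a, InE Ψ.bar k e a)
    (h0 : ∀ s, C.Par 0 s → s = 0) (jq : ∀ x, ∃ s, C.Par (Ψ.j x) s ∧ Ψ.ι s = x * Ψ.φ x)
    (jj : ∀ x y, Ψ.ι (C.B (Ψ.j x) (Ψ.j y)) = x * Ψ.φ y + Ψ.φ x * y) (hφ : ∃ x, Ψ.φ x ≠ x) : TwoG C.L := by
  have ns : ∀ {x}, x ≠ 0 → ∃ g s, Ψ.ι s = x * Ψ.φ x ∧ Ψ.Mn g (Equiv.swap (e 0) (Ψ.bar (e 0))) ∧
      g (Ψ.b (e 0)) = -s⁻¹ • Ψ.b (Ψ.bar (e 0)) ∧ g (Ψ.b (Ψ.bar (e 0))) = -s • Ψ.b (e 0) ∧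
      (∀ d, Ind Ψ.bar d (e 0) → g (Ψ.b d) = Ψ.b d) ∧ ∀ y, g (Ψ.j y) = Ψ.j (-(x * (Ψ.φ x)⁻¹) * Ψ.φ y) :=
    fun {x} hx => by
      have h1 : Ψ.φ x ≠ 0 := by simpa using hx
      obtain ⟨s, hs, jq⟩ := jq x
      have : ∀ y, Ψ.j y - (s⁻¹ * C.B (Ψ.j x) (Ψ.j y)) • Ψ.j x =
          Ψ.j (-(x * (Ψ.φ x)⁻¹) * Ψ.φ y) := fun y => by
        rw [Ψ.sj, ← map_sub, map_mul Ψ.ι, map_inv₀, jq, jj]; congr 1; field_simp; ring
      obtain ⟨g, a1, a2, a3, a4, a5⟩ := Ψ.exists_ns hs (fun h => by simp [h, hx, h1] at jq)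
        (by simp [hx, h1]) (.inr this) (e 0)
      exact ⟨g, _, jq, a1, a2, a3, a4, fun y => (a5 y).trans (this y)⟩
  obtain ⟨ζ, z0, hζ⟩ := exists_prim P
  have z1 : Ψ.φ ζ ≠ ζ := fun h => by
    obtain ⟨a, ha⟩ := hφ
    obtain ⟨k, rfl⟩ := hζ a (by rintro rfl; simp at ha)
    exact ha (by rw [map_pow, h])
  have z2 : Ψ.φ ζ ≠ 0 := by simpa using z0
  obtain ⟨g, s, hs, m, a1, a2, a3, a4⟩ := ns z0
  obtain ⟨g', s', hs', m', b1, b2, b3, b4⟩ := ns one_ne_zero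
  obtain rfl : s' = 1 := Ψ.ι.injective (by simpa using hs')
  have i0 := (hi (k - 1) (by omega) 0 (by omega) (by omega)).bl Ψ.bb
  have e1 : Ψ.ι s * (ζ * (Ψ.φ ζ)⁻¹) = ζ ^ 2 := by rw [hs]; field_simp
  refine Ψ.twoG_BC (by omega) hi hall m (fun s hs => ⟨0, 0, by simpa using h0 s hs⟩) (fun t => ?_) (h := g * g')
    (l := fun d => if d = e 0 then s else if d = Ψ.bar (e 0) then s⁻¹ else 1) (μ := ζ * (Ψ.φ ζ)⁻¹)
    ⟨mul_mem m.1 m'.1, fun d => ?_, fun x => by simp [a4, b4, Ψ.φφ]⟩ ?_ (by simpa [e1] using gn_sq hζ) ?_ ?_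
  · obtain ⟨x, hx⟩ : ∃ x, x + Ψ.φ x ≠ 0 := by
      by_contra! h
      have h1 : ∀ x, Ψ.φ x = -x := fun x => eq_neg_of_add_eq_zero_right (h x)
      exact z1 (by linear_combination h1 ζ - ζ * h1 1 + ζ * map_one Ψ.φ)
    have h1 : C.B (Ψ.j 1) (Ψ.j x) ≠ 0 := fun h => hx (by simpa [h, add_comm] using (jj 1 x).symm)
    exact ⟨1, Ψ.ι (t * (C.B (Ψ.j 1) (Ψ.j x))⁻¹) * x, by rw [← Ψ.sj]; simp [h1]⟩
  · dsimp only
    split_ifs with h1 h2
    any_goals subst d; simp [*]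
    simp [a3 d ⟨h1, h2⟩, b3 d ⟨h1, h2⟩]
  · simp only [if_pos, RingHom.id_apply, e1]
    exact fun h => z1 (by rcases sq_eq_one_iff.1 h with h | h <;> simp [h])
  · simpa [i0.1, i0.2, mul_inv_eq_one₀ z2] using z1.symm
  · simpa [i0.1, i0.2, Ψ.φφ, mul_inv_eq_one₀ z0] using z1

variable {F : Type*} [Field F] [Finite F]

/-- The group `Ω`. -/
noncomputable def ecO {V : Type*} [AddCommGroup V] [Module F V] [FiniteDimensional F V] {Q : QuadraticForm F V}
    (h : ND Q) (hd : 5 ≤ finrank F V) : EC (.id F) V where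
  B := pB Q
  L := OM Q
  Par v t := t = Q v
  σσ _ := rfl
  sym x y := pB_comm y x
  iso _ hg := OG_pB (OM_le hg)
  map _ hg _ _ h := h.trans (OM_le hg _).symm
  self h := by rw [pB_self, h, two_mul]; rfl
  add h h' := by rw [Qadd, h, h']
  smul c h := by rw [Q_smul, h]; rfl
  sub h h' := by simp [h, h']
  tr c := by simp
  ex _ := ⟨_, rfl⟩
  exE h1 h2 h3 := h3 ▸ exists_eich h hd h1.symm h2
  gen K hK := by
    rw [OM, h.omega_eq hd, Subgroup.map_le_iff_le_comap]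
    refine EG_le fun u v hu huv => Has.mem (hK u v _ hu.symm huv rfl) fun x => ?_
    rw [pB_comm u, pB_comm v, add_smul, ← sub_sub]; exact ap_eich hu huv x

theorem two_pomM {a b : F} (hab : ∀ z₁ z₂ : F, z₁ ^ 2 + a * z₁ * z₂ + b * z₂ ^ 2 = 0 → z₁ = 0 ∧ z₂ = 0) {k : ℕ}
    (hk : 1 ≤ k) : ∃ g h : POmega F (quadFormMinus (k + 1) F a b), Subgroup.closure {g, h} = ⊤ := by
  have := H38.fact_of_aniso hab
  have := finite_quadAlg a b
  have hd : 5 ≤ finrank F ((Fin (k + 1) ⊕ Fin (k + 1)) ⊕ Fin 2 → F) := by simp; omega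
  let C := ecO (nd_qMinus hab (k + 1)) hd
  let e := isoOG _ _ (qMinus_eq (k + 1) a b)
  refine TwoG.range (f := (OG _).subtype.comp (e.toMonoidHom.comp (commutator _).subtype))
    (fun x y h => Subtype.ext (e.injective (Subtype.ext h))) ?_
  suffices h : TwoG C.L by
    convert h
    rw [MonoidHom.range_comp, MonoidHom.range_comp, Subgroup.range_subtype, map_commutator_eq,
      MonoidHom.range_eq_top.2 e.surjective]; rfl
  have pb : ∀ x y, C.B x y = ∑ i, (x (.inl (.inl i)) * y (.inl (.inr i)) + y (.inl (.inl i)) * x (.inl (.inr i))) +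
      (2 * x (.inr 0) * y (.inr 0) + a * (x (.inr 0) * y (.inr 1) + y (.inr 0) * x (.inr 1)) +
        2 * b * x (.inr 1) * y (.inr 1)) := fun x y => by
    change QuadraticMap.polar _ x y = _
    simp only [QuadraticMap.polar, qMinus_apply, Pi.add_apply, add_mul, mul_add, Finset.sum_add_distrib,
      mul_comm (y (.inl (.inl _)))]
    ring
  let Ψ : C.Frm (Fin (k + 1) ⊕ Fin (k + 1)) (QuadraticAlgebra F (-b) a) :=
    { bar := Sum.swap
      b := fun c => Pi.single (.inl c) 1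
      j := AddMonoidHom.mk' (fun x => Sum.elim 0 ![x.re, x.im]) fun x y => by
        ext (i | i)
        · simp
        · fin_cases i <;> simp
      φ := (H38.qExt hab).φ
      ι := algebraMap _ _
      bb := Sum.swap_swap
      ne := fun a => by rcases a with a | a <;> simp
      b0 := fun c => by
        change 0 = qMinus _ _ _ _
        rcases c with c | c <;> simp [qMinus_apply]
      Bb := fun c d => by
        rcases c with c | c <;> rcases d with d | d <;> simp [pb, Pi.single_apply, eq_comm]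
      Bj := fun c x => by simp [pb]
      sj := fun c x => by
        ext (i | i)
        · simp
        · fin_cases i <;> simp
      φφ := star_star
      span := fun v => ⟨fun c => v (.inl c), ⟨v (.inr 0), v (.inr 1)⟩, by
        ext (i | i)
        · rcases i with i | i <;> simp [Pi.single_apply]
        · fin_cases i <;> simp⟩
      aniso := fun x h => by
        have := hab x.re x.im (by simpa [qMinus_apply] using (show 0 = qMinus _ a b _ from h).symm)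
        ext (i | i)
        · simp
        · fin_cases i <;> simp [this] }
  have jq : ∀ x, Ψ.ι (qMinus _ a b (Ψ.j x)) = x * Ψ.φ x := fun x => by
    ext <;> simp [Ψ, qMinus_apply, H38.qExt, sq] <;> ring
  have jj : ∀ x y, Ψ.ι (C.B (Ψ.j x) (Ψ.j y)) = x * Ψ.φ y + Ψ.φ x * y := fun x y => by
    ext <;> simp [Ψ, pb, H38.qExt] <;> ring
  exact Ψ.twoG_M (k := k + 1) (by omega) eN_ind (fun a => eN_in (by rcases a with a | a <;> exact a.2))
    (fun s h => h.trans (map_zero _)) (fun x => ⟨_, rfl, jq x⟩) jj ⟨_, (H38.qExt hab).ne⟩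

end Cfsg.Agent.H3
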