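import Cfsg.Agent.H3.TG2
import Cfsg.Agent.H40.D4a
import Cfsg.Agent.H40.E6a

/-! Two-element generation of the twisted exceptional groups: moving root subgroups around. -/

set_option autoImplicit false
set_option linter.unusedSectionVars false

namespace Cfsg.Agent.H3

open Cfsg.Lie Cfsg.Agent.H37 Cfsg.Agent.H37.Chev Cfsg.Agent.H40

variable {D : ChevalleyDatum} [Chev D] {hD : IsChev D} {F : Type*} [Field F] {I : Type} {C : TwC D I}
  (T : TwD (matRel hD F) C) {K : Subgroup (GL D.Idx F)} {L L' A B : List ℕ}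

/-- the fixed elements of the product of the root subgroups in `A` lie in `K` -/
def RL (K : Subgroup (GL D.Idx F)) (A : List ℕ) : Prop :=
  ∀ g ∈ (matRel hD F).X {r | r ∈ A}, g ∈ T.mt.Fix → g ∈ K

/-- the monomial element of the word `L` is fixed -/
def NF (L : List ℕ) : Prop := (∀ i ∈ L, i < D.rank) ∧ nw (matRel hD F) L ∈ T.mt.Fix

theorem nw_append {G : Type*} [Group G] (S : StRel D F G) (L L' : List ℕ) : nw S (L ++ L') = nw S L * nw S L' := by
  simp [nw]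

theorem nw_rep {G : Type*} [Group G] (S : StRel D F G) (L : List ℕ) (k : ℕ) :
    nw S (List.replicate k L).flatten = nw S L ^ k := by
  induction k with
  | zero => simp [nw]
  | succ k ih => rw [List.replicate_succ, List.flatten_cons, nw_append, ih, pow_succ']

theorem nf_word (j : I) : NF T (C.word j) := ⟨C.word_lt j, T.mt.n_mem_Fix j⟩

variable {T}

theorem NF.append (h : NF T L) (h' : NF T L') : NF T (L ++ L') :=
  ⟨fun i hi => (List.mem_append.1 hi).elim (h.1 i) (h'.1 i), by rw [nw_append]; exact mul_mem h.2 h'.2⟩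

theorem NF.rep (h : NF T L) (k : ℕ) : NF T (List.replicate k L).flatten :=
  ⟨fun i hi => by
    obtain ⟨l, hl, hi⟩ := List.mem_flatten.1 hi
    exact h.1 i (List.eq_of_mem_replicate hl ▸ hi), by rw [nw_rep]; exact pow_mem h.2 k⟩

theorem NF.acts (h : NF T L) {s : ℕ} (hs : s < D.nroots) : ∃ c : F, c ≠ 0 ∧ wact D L s < D.nroots ∧ ∀ t,
    nw (matRel hD F) L * (matRel hD F).x s t * (nw (matRel hD F) L)⁻¹ = (matRel hD F).x (wact D L s) (c * t) := by
  obtain ⟨c, hc, e⟩ := (acts_wN _ (nw_mem (matRel hD F) h.1)).1 ⟨s, hs⟩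
  have e' := wN_nw (matRel_sep hD F) h.1 ⟨s, hs⟩
  exact ⟨c, hc, e' ▸ Fin.is_lt _, fun t => e' ▸ e t⟩

theorem RL.act (H : RL T K A) (h : NF T L) (hK : nw (matRel hD F) L ∈ K)
    (hB : ∀ r ∈ B, ∃ s ∈ A, s < D.nroots ∧ wact D L s = r) : RL T K B := fun g hg hf => by
  set m := nw (matRel hD F) L
  have h1 : m⁻¹ * g * m⁻¹⁻¹ ∈ (matRel hD F).X {r | r ∈ A} := by
    refine X_le_of _ (K := ((matRel hD F).X {r | r ∈ A}).comap (MulAut.conj m⁻¹).toMonoidHom)
      (fun r hr _ t => ?_) hg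
    obtain ⟨s, hA, hs, rfl⟩ := hB r hr
    obtain ⟨c, hc, -, e⟩ := h.acts hs
    show m⁻¹ * _ * m⁻¹⁻¹ ∈ (matRel hD F).X {r | r ∈ A}
    rw [← mul_inv_cancel_left₀ hc t, ← e]
    simpa [mul_assoc, m] using x_mem_X _ (A := {r | r ∈ A}) hA hs _
  simpa [mul_assoc] using mul_mem (mul_mem hK (H _ h1 (mul_mem (mul_mem (inv_mem h.2) hf) (inv_mem (inv_mem h.2)))))
    (inv_mem hK)

theorem RL.pow (H : RL T K A) (h : NF T L) (hK : nw (matRel hD F) L ∈ K) (k : ℕ)
    (hB : ∀ r ∈ B, ∃ s ∈ A, s < D.nroots ∧ wact D (List.replicate k L).flatten s = r) : RL T K B :=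
  H.act (h.rep k) (by rw [nw_rep]; exact pow_mem hK k) hB

theorem RL.word (H : RL T K A) {w : List (ℕ × F)} (hw : w.map Prod.fst = A) (hA : ∀ r ∈ A, r < D.nroots)
    (hf : gword (matRel hD F).x w ∈ T.mt.Fix) : gword (matRel hD F).x w ∈ K :=
  H _ (gword_mem _ fun _ hp => have := hw ▸ List.mem_map_of_mem (f := Prod.fst) hp
    x_mem_X _ (A := {r | r ∈ A}) this (hA _ this) _) hf

theorem rl_of_XJ {j : I} (H : ∀ x ∈ T.mt.XJ j, x ∈ T.mt.Fix → x ∈ K) (hA : ∀ r ∈ A, inJ D (C.Js j) r) :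
    RL T K A := fun g hg =>
  H g (T.mt_XJ j ▸ X_le_of _ (fun r hr h t => x_mem_X _ (A := {r | inJ D (C.Js j) r}) (hA r hr) h t) hg)

open PE in
theorem RL.comm {p : ℤ} (hp : (p : F) = 0) {X Y Y' Z : List (ℕ × PE)} (H : RL T K (Y'.map Prod.fst))
    (hY' : ∀ r ∈ Y'.map Prod.fst, r < D.nroots) (h : NF T L)
    (c1 : wcheck D p (nwPE D L ++ Y) (Y' ++ nwPE D L) = true) (c2 : wcheck D p (X ++ Y') (Y' ++ X ++ Z) = true)
    (v : List F) (hY : gword (matRel hD F).x (evW v Y) ∈ T.mt.Fix) (hX : gword (matRel hD F).x (evW v X) ∈ K) :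
    gword (matRel hD F).x (evW v Z) ∈ K := by
  have e1 := gword_eq_of_check hD hp c1 v
  have e2 := gword_eq_of_check hD hp c2 v
  simp only [evW_append, gword_append, ← nw_eq_gword] at e1 e2
  refine mem_of_comm' e2 (H.word (by simp [evW]) hY' ?_) hX
  rw [← mul_inv_eq_iff_eq_mul.2 e1]
  exact mul_mem (mul_mem h.2 hY) (inv_mem h.2)

theorem NF.conj (h : NF T L) {g : GL D.Idx F} {c : ℕ → Fˣ} (hc : IsH (matRel hD F) g c) (hg : g ∈ T.mt.Fix) {s : ℕ}
    (hs : s < D.nroots) : ∃ c', IsH (matRel hD F) (nw (matRel hD F) L * g * (nw (matRel hD F) L)⁻¹) c' ∧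
      nw (matRel hD F) L * g * (nw (matRel hD F) L)⁻¹ ∈ T.mt.Fix ∧ chi D c' (wact D L s) = chi D c s ∧
      Commute g (nw (matRel hD F) L * g * (nw (matRel hD F) L)⁻¹) := by
  obtain ⟨c', hc'⟩ := exists_isH (T.mt.H_conj (nw_mem _ h.1) hc.1)
  refine ⟨c', hc', mul_mem (mul_mem h.2 hg) (inv_mem h.2), ?_, H_comm (matRel_adj _ _) hc.1 hc'.1⟩
  obtain ⟨d, hd, hr, e⟩ := h.acts hs
  have e1 := hc'.2 _ hr (d * 1)
  rw [← e 1] at e1
  have e2 := e (chi D c s * 1)
  rw [← hc.2 s hs] at e2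
  have := x_inj (matRel_sep _ _) hr (e1.symm.trans ((by group :
    _ = nw (matRel hD F) L * (g * (matRel hD F).x s 1 * g⁻¹) * (nw (matRel hD F) L)⁻¹).trans e2))
  exact Units.ext (mul_right_cancel₀ hd (by simpa [mul_comm] using this))

variable {φ : F →+* F} (hT : T.e = fun _ => φ) {j : I} (o : OrbJ C j)
include hT o

theorem rl_ox (H : ∀ t, φ^[(C.word j).length] t = t → ox hD C φ j t ∈ K) : RL T K ((C.word j).map D.simple) :=
  rl_of_XJ (fun x hx hf => by obtain ⟨t, ht, rfl⟩ := T.exists_ox hT o hx hf; exact H t ht) fun r hr =>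
    (o.2.2.2 r (o.2.1.1 r (o.map_eq ▸ hr)).1).1 hr

theorem RL.oxy (H : RL T K ((C.word j).map D.simple)) (H' : RL T K (((C.word j).map D.simple).map D.neg)) (t : F)
    (ht : φ^[(C.word j).length] t = t) : ox hD C φ j t ∈ K ∧ oy hD C φ j t ∈ K := by
  have h : ∀ r ∈ (C.word j).map D.simple, r < D.nroots := fun r hr => (o.2.1.1 r (o.map_eq ▸ hr)).1
  refine ⟨H.word (ow_fst _ _ _) h ((T.ox_mem_Fix hT o).2 ht), H'.word (ow_fst _ _ _) (fun r hr => ?_)
    ((T.oy_mem_Fix hT o).2 ht)⟩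
  obtain ⟨s, hs, rfl⟩ := List.mem_map.1 hr
  exact neg_lt (h s hs)

theorem RL.n_mem (H : RL T K ((C.word j).map D.simple)) (H' : RL T K (((C.word j).map D.simple).map D.neg)) :
    nw (matRel hD F) (C.word j) ∈ K := by
  rw [← T.mt_n, T.n_eq_on (φ := φ)]
  exact on_mem o (H.oxy hT o H') (Function.iterate_fixed (map_one φ) _)

theorem act_ox (hφ : ∀ t, φ^[(C.word j).length] t = t) {g : GL D.Idx F} {c : ℕ → Fˣ}
    (hc : IsH (matRel hD F) g c) (hg : g ∈ T.mt.Fix) :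
    Act g (ox hD C φ j) (chi D c (D.simple (C.word j).headI)) := fun t => by
  simp only [ox, o.map_eq]
  exact T.conj_ow hT o.2.1 hc hg (o.len ▸ hφ t)

theorem stein_ox (hφ : ∀ t, φ^[(C.word j).length] t = t) (h : NF T L) {g : GL D.Idx F} {c : ℕ → Fˣ}
    (hc : IsH (matRel hD F) g c) (hg : g ∈ T.mt.Fix) {s : ℕ} (hs : s < D.nroots)
    (e : wact D L s = D.simple (C.word j).headI) (ha : (chi D c (D.simple (C.word j).headI) : F) ≠ 1)
    (ga : Gn (chi D c (D.simple (C.word j).headI) : F)) (ha' : (chi D c s : F) ≠ 1) (hK : g ∈ K)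
    (hx : ox hD C φ j 1 * nw (matRel hD F) L ∈ K) :
    RL T K ((C.word j).map D.simple) ∧ nw (matRel hD F) L ∈ K := by
  obtain ⟨c', h1, h2, h3, h4⟩ := h.conj hc hg hs
  have := stein1' (fun s t => (ox_add o s t).symm) (act_ox hT o hφ hc hg) (act_ox hT o hφ h1 h2) h4 ha ga
    (by rwa [← e, h3]) hK hx
  exact ⟨rl_ox hT o fun t _ => this.1 t, this.2⟩

end Cfsg.Agent.H3
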