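import Cfsg.Agent.H3.TG8
import Cfsg.Agent.H38.Gen2

/-! The groups ³D₄(q), ²E₆(q) and ²F₄(q) are generated by two elements. -/

set_option autoImplicit false

namespace Cfsg.Agent.H3

open Cfsg.Lie Cfsg.Agent.H37 Cfsg.Agent.H37.Chev Cfsg.Agent.H40 PE

variable {F : Type*} [Field F]

theorem exists_frob_ne [Fintype F] {φ : F →+* F} {q n : ℕ} (hq : IsPrimePow q) (hF : Fintype.card F = q ^ n)
    (hφ : ∀ t, φ t = t ^ q) (hn : 2 ≤ n) : ∃ y, φ y ≠ y := by
  by_contra! h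
  have h1 := card_fix_one hq hF hφ
  rw [Nat.card_congr (Equiv.subtypeUnivEquiv (p := fun t => φ^[1] t = t) h), Nat.card_eq_fintype_card, hF] at h1
  have := Nat.pow_lt_pow_right hq.one_lt (show 1 < n from hn)
  rw [pow_one] at this
  omega

theorem sq_ne_one_of_prim {φ : F →+* F} {ζ y : F} (hζ : ∀ t : F, t ≠ 0 → ∃ k : ℕ, ζ ^ k = t) (hy : φ y ≠ y) :
    ζ ^ 2 ≠ 1 := fun h => by
  by_cases h0 : y = 0
  · simp [h0] at hy
  obtain ⟨k, rfl⟩ := hζ y h0
  rcases sq_eq_one_iff.1 h with h | h <;> simp [h] at hy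

theorem exists_tr2 {φ : F →+* F} {y : F} (hy : φ y ≠ y) : ∃ b, b + φ b ≠ 0 := by
  by_contra! h
  have h1 := h 1
  rw [map_one] at h1
  exact hy (by linear_combination h y - y * h1)

theorem exists_tr3 {φ : F →+* F} (h3 : ∀ t, φ^[3] t = t) {y : F} (hy : φ y ≠ y) : ∃ b, b + φ b + φ (φ b) ≠ 0 := by
  by_contra! h
  have h1 := h (φ y * y)
  have h2 := h y
  have h4 : φ (φ (φ y)) = y := h3 y
  have h5 := h 1
  simp only [map_mul, map_one, h4] at h1 h5
  refine hy (sub_eq_zero.1 (pow_eq_zero_iff two_ne_zero |>.1 ?_))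
  linear_combination (-1 : F) * h1 + (φ y + y) * h2 - φ y * y * h5

theorem chkD1 : wcheck chevD4 0 (nwPE chevD4 [1] ++ [(18, var 3), (13, var 4), (12, var 5)])
    ([(19, var 3), (16, neg (var 4)), (15, neg (var 5))] ++ nwPE chevD4 [1]) = true := by decide +kernel

theorem chkD2 : wcheck chevD4 0 ([(5, var 0), (10, var 1), (11, var 2)] ++
    [(19, var 3), (16, neg (var 4)), (15, neg (var 5))]) ([(19, var 3), (16, neg (var 4)), (15, neg (var 5))] ++
    [(5, var 0), (10, var 1), (11, var 2)] ++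
    [(14, neg (add (add (mul (var 0) (var 3)) (mul (var 1) (var 4))) (mul (var 2) (var 5))))]) = true := by
  decide +kernel

theorem two_D4 [Fintype F] {q : ℕ} (hq : IsPrimePow q) (hF : Fintype.card F = q ^ 3) : TwoG (twistedD4 F q) := by
  obtain ⟨φ, hφ⟩ := exists_frob hq hF
  have h3 := frob_iter_self hF hφ
  obtain ⟨y, hy⟩ := exists_frob_ne hq hF hφ (by decide)
  obtain ⟨ζ, h0, hζ⟩ := exists_prim F
  obtain ⟨b, hb⟩ := exists_tr3 h3 hy
  have h2 := sq_ne_one_of_prim hζ hy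
  have hT := TD_e φ
  have hg := (TD φ).oh_mem_Fix hT (orbD4 1) (h3 ζ)
  have hc := isH_oh (hD := isChev_D4) (φ := φ) (orbD4 1) (Units.mk0 ζ h0)
  have hx := fun t => ((TD φ).ox_mem_Fix hT (orbD4 1)).2 (h3 t)
  have hn : NF (TD φ) [1, 0, 2, 3] := (nf_word _ 0).append (nf_word _ 1)
  have e : (chevD4.cartan 0 18 = 2 ∧ chevD4.cartan 1 18 = -1 ∧ chevD4.cartan 2 18 = 0 ∧ chevD4.cartan 3 18 = 0) ∧
    chevD4.cartan 0 17 = -1 ∧ chevD4.cartan 1 17 = 0 ∧ chevD4.cartan 2 17 = 1 ∧ chevD4.cartan 3 17 = 1 := by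
    decide +kernel
  have e1 : (chi chevD4 (oc φ (CD4.word 1) (Units.mk0 ζ h0)) (chevD4.simple (CD4.word 1).headI) : F) = ζ ^ 2 := by
    rw [chiD4, show chevD4.simple (CD4.word 1).headI = 18 from rfl]
    simp [e, oc, CD4, zpow_ofNat]
  have e2 : (chi chevD4 (oc φ (CD4.word 1) (Units.mk0 ζ h0)) 17 : F) ≠ 1 := fun h => h2 <| by
    rw [chiD4] at h
    simp [e, oc, CD4] at h
    have h' := congrArg φ h
    simp only [map_mul, map_inv₀, map_one, show φ (φ (φ ζ)) = ζ from h3 ζ] at h'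
    have h4 := (map_ne_zero φ).2 h0
    apply φ.injective
    apply φ.injective
    simp only [map_pow, map_one]
    field_simp at h h'
    grind
  rw [← Fix_D4 h3 hφ]
  refine ⟨_, hg, _, mul_mem (hx 1) hn.2, fun K a1 a2 => (Fix_le_G0_D4 h3).trans ?_⟩
  obtain ⟨R, hK⟩ := stein_ox hT (orbD4 1) h3 hn hc hg (s := 17) (by decide) (by decide +kernel) (e1 ▸ h2)
    (e1 ▸ gn_sq hζ) e2 a1 a2
  have R' := R.pow (B := ((CD4.word 1).map chevD4.simple).map chevD4.neg) hn hK 3 (by decide +kernel)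
  have R0 := rl_ox hT (orbD4 0) (K := K) fun t (ht : φ t = t) => by
    have hτ : φ (b + φ b + φ (φ b)) = b + φ b + φ (φ b) := by
      simp only [map_add, show φ (φ (φ b)) = b from h3 b]; ring
    set a := -t / (b + φ b + φ (φ b)) with ha
    have h1 : φ a = a := by rw [ha, map_div₀, map_neg, ht, hτ]
    have := RL.comm Int.cast_zero (R.pow hn hK 4 (by decide +kernel)) (by decide) (nf_word _ 0) chkD1 chkD2
      [a, φ a, φ (φ a), b, φ b, φ (φ b)] (hx b) (R.oxy hT (orbD4 1) R' a (h3 a)).2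
    convert this using 1
    simp only [evW, PE.eval, List.map_cons, List.map_nil, List.take, List.getD_cons_zero, List.getD_cons_succ, h1]
    rw [← mul_add, ← mul_add, ha, div_mul_cancel₀ _ hb, neg_neg]
    rfl
  refine (TD φ).G0_le_ox hT orbD4 fun j => ?_
  obtain rfl | rfl : j = 0 ∨ j = 1 := by fin_cases j <;> simp
  exacts [R0.oxy hT (orbD4 0) (R0.pow hn hK 3 (by decide +kernel)), R.oxy hT (orbD4 1) R']

theorem chkE1 : wcheck chevE6 0 (nwPE chevE6 [3] ++ [(42, var 2), (37, var 3)])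
    ([(43, var 2), (40, neg (var 3))] ++ nwPE chevE6 [3]) = true := by decide +kernel

theorem chkE2 : wcheck chevE6 0 ([(29, var 0), (34, var 1)] ++ [(43, var 2), (40, neg (var 3))])
    ([(43, var 2), (40, neg (var 3))] ++ [(29, var 0), (34, var 1)] ++
    [(39, neg (add (mul (var 0) (var 2)) (mul (var 1) (var 3))))]) = true := by
  decide +kernel

theorem two_E6 [Fintype F] {q : ℕ} (hq : IsPrimePow q) (hF : Fintype.card F = q ^ 2) : TwoG (twistedE6 F q) := by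
  obtain ⟨φ, hφ⟩ := exists_frob hq hF
  have h3 := frob_iter_self hF hφ
  obtain ⟨y, hy⟩ := exists_frob_ne hq hF hφ le_rfl
  obtain ⟨ζ, h0, hζ⟩ := exists_prim F
  obtain ⟨b, hb⟩ := exists_tr2 hy
  have h2 : ζ⁻¹ ≠ 1 := fun h => sq_ne_one_of_prim hζ hy (by rw [inv_eq_one.1 h, one_pow])
  have hT := TE_e φ
  have hg := (TE φ).oh_mem_Fix hT (orbE6 2) (h3 ζ)
  have hc := isH_oh (hD := isChev_E6) (φ := φ) (orbE6 2) (Units.mk0 ζ h0)
  have hx := fun t => ((TE φ).ox_mem_Fix hT (orbE6 3)).2 (h3 t)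
  have hn : NF (TE φ) [0, 5, 1, 3, 2, 4] :=
    (nf_word _ 3).append ((nf_word _ 0).append ((nf_word _ 1).append (nf_word _ 2)))
  have e1 : (chi chevE6 (oc φ (CE6.word 2) (Units.mk0 ζ h0)) (chevE6.simple (CE6.word 3).headI) : F) = ζ⁻¹ := by
    rw [show chevE6.simple (CE6.word 3).headI = 56 from rfl, (chiE6 _).1]
    simp [oc, CE6]
  have e2 : (chi chevE6 (oc φ (CE6.word 2) (Units.mk0 ζ h0)) 14 : F) = ζ⁻¹ := by
    have e : ∀ i ∈ Finset.range 6, chevE6.cartan i 14 = [-1, 0, -1, 1, 0, 0].getD i 0 := by decide +kernel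
    rw [chi, show chevE6.rank = 6 from rfl, Finset.prod_congr rfl fun i hi => by rw [e i hi]]
    simp [Finset.prod_range_succ, oc, CE6]
  rw [← Fix_E6 h3 hφ]
  refine ⟨_, hg, _, mul_mem (hx 1) hn.2, fun K a1 a2 => (Fix_le_G0_E6 h3).trans ?_⟩
  obtain ⟨R, hK⟩ := stein_ox hT (orbE6 3) h3 hn hc hg (s := 14) (by decide) (by decide +kernel) (e1 ▸ h2)
    (e1 ▸ gn_of_prim (prim_inv hζ)) (e2 ▸ h2) a1 a2
  have R' := R.pow (B := ((CE6.word 3).map chevE6.simple).map chevE6.neg) hn hK 6 (by decide +kernel)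
  have R2 := (R.pow (B := [57, 38]) hn hK 5 (by decide +kernel)).act (B := (CE6.word 2).map chevE6.simple)
    (nf_word _ 3) (R.n_mem hT (orbE6 3) R') (by decide +kernel)
  have R2' := R2.pow (B := ((CE6.word 2).map chevE6.simple).map chevE6.neg) hn hK 6 (by decide +kernel)
  have R1 := rl_ox hT (orbE6 1) (K := K) fun t (ht : φ t = t) => by
    have hτ : φ (b + φ b) = b + φ b := by rw [map_add, show φ (φ b) = b from h3 b, add_comm]
    set a := -t / (b + φ b) with ha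
    have h1 : φ a = a := by rw [ha, map_div₀, map_neg, ht, hτ]
    have := RL.comm Int.cast_zero (R.pow hn hK 4 (by decide +kernel)) (by decide) (nf_word _ 1) chkE1 chkE2
      [a, φ a, b, φ b] (((TE φ).ox_mem_Fix hT (orbE6 2)).2 (h3 b)) (R2.oxy hT (orbE6 2) R2' a (h3 a)).2
    convert this using 1
    simp only [evW, PE.eval, List.map_cons, List.map_nil, List.take, List.getD_cons_zero, List.getD_cons_succ, h1]
    rw [← mul_add, ha, div_mul_cancel₀ _ hb, neg_neg]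
    rfl
  refine (TE φ).G0_le_ox hT orbE6 fun j => ?_
  obtain rfl | rfl | rfl | rfl := fin_four j
  exacts [(R1.pow hn hK 11 (by decide +kernel)).oxy hT (orbE6 0) (R1.pow hn hK 5 (by decide +kernel)),
    R1.oxy hT (orbE6 1) (R1.pow hn hK 6 (by decide +kernel)), R2.oxy hT (orbE6 2) R2', R.oxy hT (orbE6 3) R']

theorem chkF1 : wcheck chevF4 2 (nwPE chevF4 [0, 3] ++ w4 one one one zero)
    ([(34, one), (26, one), (36, one), (42, zero)] ++ nwPE chevF4 [0, 3]) = true := by decide +kernel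

theorem chkF2 : wcheck chevF4 2 ([(20, var 0), (22, var 1), (19, var 2), (17, var 3)] ++
    [(34, one), (26, one), (36, one), (42, zero)]) ([(34, one), (26, one), (36, one), (42, zero)] ++
    [(20, var 0), (22, var 1), (19, var 2), (17, var 3)] ++ [(33, var 0), (24, var 1)]) = true := by
  decide +kernel

theorem conj_su {e : ℕ} (θ : Th F 2 e) {g : GL chevF4.Idx F} {c : ℕ → Fˣ} (hc : IsH (SF F) g c)
    (hg : g ∈ (TF θ).mt.Fix) {x : GL chevF4.Idx F} {t : F} (h : ∃ u, x = su θ t u) :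
    ∃ u, g * x * g⁻¹ = su θ (chi chevF4 c 25 * t) u := by
  obtain ⟨u, rfl⟩ := h
  have h1 := mul_mem (mul_mem hg (su_mem_Fix θ t u)) (inv_mem hg)
  rw [su, g4, hc.conj_word (by simp [w4, show chevF4.nroots = 48 from rfl])] at h1 ⊢
  exact ⟨_, g4_eq_su θ h1⟩

theorem two_F4 [Fintype F] {m : ℕ} (hm : 1 ≤ m) (hF : Fintype.card F = 2 ^ (2 * m + 1)) :
    TwoG (twistedF4 F (2 ^ m)) := by
  classical
  let θ := mkTh Nat.prime_two hF
  have h2 := two_eq_zero θ
  obtain ⟨ζ, h0, hζ⟩ := exists_prim F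
  have h1 : ζ⁻¹ ≠ 1 := fun h => by
    have : Fintype.card F ≤ 2 := (Finset.card_le_card (t := {0, 1}) fun t _ => by
      by_cases ht : t = 0
      · simp [ht]
      · obtain ⟨k, rfl⟩ := hζ t ht
        simp [inv_eq_one.1 h]).trans Finset.card_le_two
    have := Nat.pow_lt_pow_right one_lt_two (show 1 < 2 * m + 1 by omega)
    omega
  have hg := fh_mem_Fix θ (Units.mk0 ζ h0, 1)
  have hc := isH_fh θ (Units.mk0 ζ h0, 1)
  have hn : NF (TF θ) [1, 2, 1, 2, 0, 3] := (nf_word _ 1).append (nf_word _ 0)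
  have e : (chevF4.cartan 0 25 = 0 ∧ chevF4.cartan 1 25 = -2 ∧ chevF4.cartan 2 25 = 2 ∧ chevF4.cartan 3 25 = -1) ∧
    chevF4.cartan 0 21 = 0 ∧ chevF4.cartan 1 21 = 2 ∧ chevF4.cartan 2 21 = -1 ∧ chevF4.cartan 3 21 = -1 := by
    decide +kernel
  have e1 : (chi chevF4 (fc θ (Units.mk0 ζ h0, 1)) 25 : F) = ζ⁻¹ := by simp [chiF4, e, fc]
  have e2 : (chi chevF4 (fc θ (Units.mk0 ζ h0, 1)) 21 : F) = ζ⁻¹ := by simp [chiF4, e, fc]
  rw [← Fix_F4 θ]
  refine ⟨_, hg, _, mul_mem (su_mem_Fix θ 1 0) hn.2, fun K a1 a2 => ((Fix_F4 θ).trans (G0_F4 θ).symm).le.trans ?_⟩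
  obtain ⟨c', b1, b2, b3, b4⟩ := hn.conj hc hg (s := 21) (by decide)
  rw [show wact chevF4 [1, 2, 1, 2, 0, 3] 21 = 25 by decide +kernel] at b3
  have H := stein1 (T := fun g t => ∃ u, g = su θ t u) ⟨0, (su_zero θ).symm⟩
    (fun ⟨_, a⟩ ⟨_, b⟩ => by rw [a, b]; exact ⟨_, su_mul θ _ _ _ _⟩)
    (fun {g s} ⟨u, a⟩ => ⟨θ.φ s * s - u, by rw [a, inv_eq_iff_mul_eq_one, su_mul, ← su_zero θ]; congr 1 <;> ring⟩)
    (conj_su θ hc hg) (conj_su θ b1 b2) b4 (e1 ▸ h1) (e1 ▸ gn_of_prim (prim_inv hζ)) (by rwa [b3, e2]) ⟨0, rfl⟩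
    one_ne_zero a1 a2
  have H0 : ∀ u, su θ 0 u ∈ K := fun u => by
    by_cases hu : u = 0
    · rw [hu, su_zero]; exact one_mem _
    obtain ⟨_, h, v, rfl⟩ := H ((u / θ.φ u) ^ 2)
    convert mul_mem h h using 1
    rw [su_mul, ← two_mul, ← two_mul, h2, zero_mul, zero_mul, zero_add, map_pow, map_div₀, div_pow, θ.φφ]
    have := (map_ne_zero θ.φ).2 hu
    congr 1
    field_simp
  have H1 : ∀ t u, su θ t u ∈ K := fun t u => by
    obtain ⟨_, h, v, rfl⟩ := H t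
    simpa [su_mul] using mul_mem h (H0 (u - v))
  have hK : nw (SF F) [1, 2, 1, 2, 0, 3] ∈ K := by simpa using mul_mem (inv_mem (H1 1 0)) a2
  have R := rl_of_XJ (T := TF θ) (K := K) (j := 1) (A := [27, 25, 28, 30])
    (fun x hx hf => by obtain ⟨t, u, rfl⟩ := exists_su θ hx hf; exact H1 t u) (by decide +kernel)
  have R' : ∀ t u, (TF θ).mt.n 1 * su θ t u * ((TF θ).mt.n 1)⁻¹ ∈ K := fun t u => by
    have := mul_mem (mul_mem ((TF θ).mt.n_mem_Fix 1) (su_mem_Fix θ t u)) (inv_mem ((TF θ).mt.n_mem_Fix 1))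
    rw [su, n1_conj_g4] at this ⊢
    exact (R.pow (B := [20, 22, 19, 17]) hn hK 4 (by decide +kernel)).word rfl (by decide) this
  have n1 : (TF θ).mt.n 1 ∈ K := n1_eq θ ▸ mul_mem (mul_mem (H1 _ _) (R' _ _)) (H1 _ _)
  refine (TF θ).mt.G0_le_of_gen (fun j => ?_) (XJ_ind_F4 θ (fun t => ?_) H1)
  · obtain rfl | rfl : j = 0 ∨ j = 1 := by fin_cases j <;> simp
    · exact (Subgroup.mul_mem_cancel_left _ n1).1 (nw_append (SF F) [1, 2, 1, 2] [0, 3] ▸ hK)
    · exact n1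
  · have := R' t 0
    rw [su, n1_conj_g4] at this
    refine RL.comm θ.cast_p (R.pow hn hK 3 (by decide +kernel)) (by decide) (nf_word _ 0) chkF1 chkF2
      [θ.φ t, t, θ.φ t * t + 0, θ.ψ 0] ?_ this
    exact (g4_mem_Fix θ (a := 1) (b := 1) (c := 1) (d := 0)).2 (by simp)

end Cfsg.Agent.H3
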